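import Cfsg.Agent.Lib.CoT.Seven
import Cfsg.Agent.Lib.Monster.Th
import Cfsg.Agent.Lib.Fi.Sec
import Cfsg.Agent.Lib.Inv.Dihedral
import Cfsg.Agent.Lib.Extraspecial.Pair

/-!
# The subgroups `7 × A₇` and `S₃ × A₉` of `Co₁`
-/

set_option autoImplicit false
set_option maxRecDepth 100000

namespace Cfsg.Lib.CoT

open Subgroup MulAction Cfsg.Lib.Leech Cfsg.Lib.Mon Cfsg.Spor Cfsg.Lib.Calc Cfsg.Lib.F2 Cfsg.Lib.ES

variable {G : Type*} [Group G]

theorem norm_three_equiv [Finite G] {A : Type*} [Group A] {x t : G} (hx : orderOf x = 3) (ht : t * t = 1)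
    (h : t * x = x ^ 2 * t) {ψ : centralizer ({x} : Set G) →* A} (hs : Function.Surjective ψ)
    (hk : ∀ c, ψ c = 1 ↔ (c : G) ∈ zpowers x)
    (h1 : centralizer {x} ≤ zpowers x ⊔ centralizer {x} ⊓ centralizer {t}) :
    Nonempty (normalizer (zpowers x : Set G) ≃* Equiv.Perm (Fin 3) × A) := by
  have h2 : t * x * t⁻¹ = x⁻¹ := by
    rw [h, mul_inv_cancel_right, eq_inv_iff_mul_eq_one, ← pow_succ]
    exact orderOf_dvd_iff_pow_eq_one.1 hx.dvd
  obtain ⟨e⟩ := Inv.nonempty_closure_mulEquiv_dihedral ht h2 (by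
    rintro ⟨i, rfl⟩
    have := orderOf_dvd_of_pow_eq_one (x := x) (n := 2) (by
      rw [sq, ← eq_inv_iff_mul_eq_one, ← h2, (Commute.self_zpow x i).symm.eq, mul_inv_cancel_right])
    rw [hx] at this
    omega)
  rw [hx] at e
  obtain ⟨f⟩ := nonempty_dihedral_three_equiv
  have mx : zpowers x ≤ closure {t, x} := (zpowers_le (G := G)).2 (subset_closure (by simp))
  have h3 : centralizer {x} ⊓ centralizer {t} ≤ centralizer (closure {t, x} : Set G) := by
    rw [centralizer_closure, centralizer_pair, inf_comm]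
  have h4 : closure {t, x} ⊓ (centralizer {x} ⊓ centralizer {t}) = ⊥ := eq_bot_iff.2 fun y hy => by
    have : ∀ σ : Equiv.Perm (Fin 3), (∀ τ, τ * σ = σ * τ) → σ = 1 := by decide
    refine congrArg Subtype.val ((map_eq_one_iff _ (e.trans f).injective).1 (this ((e.trans f) ⟨y, hy.1⟩) fun τ => ?_))
    obtain ⟨d, rfl⟩ := (e.trans f).surjective τ
    rw [← map_mul, ← map_mul]
    exact congrArg _ (Subtype.ext (h3 hy.2 d d.2))
  have h5 := Fi.normalizer_three hx h
  obtain ⟨g⟩ := Fi.equiv_prod (Q := normalizer (zpowers x : Set G)) h3 h4 (by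
    refine le_antisymm (sup_le ((closure_le _).2 ?_) (inf_le_left.trans (h5.1.ge.trans' le_sup_right)))
      (h5.1.le.trans (sup_le (le_sup_of_le_left ((zpowers_le (G := G)).2 (subset_closure (by simp))))
        (h1.trans (sup_le_sup_right mx _))))
    rintro _ (rfl | rfl)
    exacts [h5.1.ge (mem_sup_left (mem_zpowers _)), le_normalizer (mem_zpowers _)])
  refine ⟨g.trans ((e.trans f).prodCongr (.ofBijective (ψ.comp (inclusion inf_le_left))
    ⟨(injective_iff_map_eq_one _).2 fun c hc => Subtype.ext (h4.le ⟨mx ((hk _).1 hc), c.2⟩), fun a => ?_⟩))⟩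
  obtain ⟨c, rfl⟩ := hs a
  obtain ⟨y, hy, l, hl, e⟩ := (coe_mul_of_right_le_normalizer_left _ _ (inf_le_left.trans
    (Core.centralizer_zpowers x ▸ centralizer_le_normalizer _))).le (h1 c.2)
  refine ⟨⟨l, hl⟩, ((mul_inv_eq_one.1 (((map_mul ψ _ _).trans (congrArg _ (map_inv ψ _))).symm.trans
    ((hk _).2 ?_)))).symm⟩
  change (c : G) * l⁻¹ ∈ _
  rwa [← e, mul_inv_cancel_right]

theorem exists_nine : ∃ x : Co1, orderOf x = 3 ∧
    Nonempty (normalizer (zpowers x : Set Co1) ≃* Equiv.Perm (Fin 3) × alternatingGroup (Fin 9)) := by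
  have hN : gp1 (Th.L.map Prod.fst) ≤ normalizer (zpowers (px (Mathieu.mk Mathieu.r3B)) : Set Co1) :=
    le_normalizer_of Th.hx (by decide +kernel)
  obtain ⟨h1, h2⟩ := fix_count (Nat.zero_le _) (le_FT Th.hx Th.hG hN Th.o3)
    (le_ncard_FT hN (e0_mem_FT (px_mem _)) (le_orbit_e0 Th.hG Th.o4)) (ncard_fix_le Th.hx Th.fix) rfl
  obtain ⟨-, h3, -⟩ := cf_of_tab (Y := PV 9) (code' := codeP 9) Th.hx (code1_inj (num_fin 9)) (coded_perm 9)
    (tst_perm 9 (by decide +kernel)) (ker_perm 9)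
    (sur1' (num_fin 9) _ _) Th.tab List.mem_cons_self Th.hL Th.hG Th.h0 (le_orbit_e0 Th.hG Th.o4) (by decide)
    (h2 ▸ ncard_orbit_le (px_mem _)) (N := 181440) (w := 4)
    (low_genL (coded_perm 9) (fun _ => exists_code1 (num_fin 9)) (List.forall_mem_map.2 Th.hL) Th.lo_ok) (by
      rw [card_cen_stab, Mathieu.card_cen_3B, Th.ord]
      have := card_cen_signs (n := 8) Th.hx Th.cj (by norm_num) (by norm_num)
      omega) h1
  obtain ⟨F⟩ := Th.cf
  obtain ⟨t, -, r⟩ := S7.hG _ (.head _)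
  refine ⟨_, Th.ord, norm_three_equiv (t := t) Th.ord (coded1.eq_one ker1 
    (show mmul 24 S7.T S7.T = idM 24 by decide +kernel ▸ r.mul r))
    ((r.mul Th.hx).eq_of_ker coded1 ker1 (show mmul 24 (mpow 24 Th.X 2) S7.T = mmul 24 S7.T Th.X by decide +kernel ▸
      (Th.hx.pow code2_lt 2).mul r)) F.surj F.ker (h3.ge.trans (coded1.genL_le (ker1_le _) fun C hC => ?_))⟩
  obtain ⟨g, hg, s⟩ := good_gp1 Th.hG C hC
  rcases List.mem_cons.1 hC with rfl | hC
  · exact ⟨_, mem_sup_left (mem_zpowers _), Th.hx⟩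
  · exact ⟨g, mem_sup_right ⟨h3.le hg, mem_centralizer_singleton_iff.2 (coded1.comm_of ker1 r
      (L := (Th.L.map Prod.fst).tail) (by decide +kernel) g (mem_genL hC s))⟩, s⟩

theorem local_seven_nine (φ : Co1 ≃* G) : (∃ V : Subgroup G, Nat.card V = 7 ∧
    Nonempty (centralizer (V : Set G) ≃* Multiplicative (ZMod 7) × alternatingGroup (Fin 7))) ∧ ∃ W : Subgroup G,
      Nat.card W = 3 ∧ Nonempty (normalizer (W : Set G) ≃* Equiv.Perm (Fin 3) × alternatingGroup (Fin 9)) := by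
  obtain ⟨v, -, hv⟩ := S7.hG _ (.tail _ (.tail _ (.head _)))
  obtain ⟨e⟩ := S7.cen_equiv hv
  obtain ⟨x, hx, ⟨f⟩⟩ := exists_nine
  exact ⟨⟨zpowers (φ v), by rw [Nat.card_zpowers, φ.orderOf_eq, S7.ord hv],
    ⟨(MulEquiv.subgroupCongr (Core.centralizer_zpowers _)).trans ((centralizerEquiv φ rfl).symm.trans e)⟩⟩,
    (zpowers x).map φ.toMonoidHom, by rw [card_map_of_injective φ.injective, Nat.card_zpowers, hx],
    ⟨((φ.subgroupMap _).trans (MulEquiv.subgroupCongr (map_equiv_normalizer_eq _ φ))).symm.trans f⟩⟩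

end Cfsg.Lib.CoT
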