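import Cfsg.Agent.Lib.CoT.SevenD
import Cfsg.Agent.Lib.Fi.ExtA

/-!
# The centraliser in `Co₁` of a fixed point free element of order seven has order at most `17640`
-/

set_option autoImplicit false
set_option maxRecDepth 100000

namespace Cfsg.Lib.CoT.S7

open Subgroup MulAction Cfsg.Lib.Leech Cfsg.Lib.Mon Cfsg.Spor Cfsg.Lib.Calc Cfsg.Lib.F2

/-- The class `c` contains a short vector of norm `k`. -/
def Ty (c k : ℕ) : Prop := k ≤ 64 ∧ ∃ y : leechLattice, code y = c ∧ nm(y) = k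

variable {c k C : ℕ}

theorem Ty.lt (h : Ty c k) : c < 2 ^ 24 := let ⟨_, y, e, _⟩ := h; e ▸ code_lt y

theorem Ty.eq {k' : ℕ} (h : Ty c k) (h' : Ty c k') : k = k' := by
  obtain ⟨a, y, e, f⟩ := h
  obtain ⟨a', y', e', f'⟩ := h'
  have := sqNorm_eq_of_code (x := y) (y := y') (by omega) (by omega) (e.trans e'.symm)
  omega

theorem Ty.map {H : Subgroup Co1} (hC : Good 24 code2 H C) (h : Ty c k) : Ty (app 24 C c) k :=
  let ⟨g, _, hg⟩ := good_comap hC
  let ⟨a, y, e, f⟩ := h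
  ⟨a, g • y, e ▸ hg y, (sqNorm_smul g y).trans f⟩

theorem ty_of {a : ℕ} (h : sh c a k = true) : Ty c k := by
  simp only [sh, band_eq_true, dotV_iff, beq_iff, ble_iff] at h
  exact ⟨h.2.2, lv a, (code_lv h.1.1).trans h.2.1, by rw [coe_lv h.1.1, sqNorm_eq_dot, h.1.2]; simp⟩

theorem card_le {T : Finset ℕ} (h1 : ∀ c ∈ T, Ty c 32) (h2 : ∀ c ∈ T, ∀ c' ∈ T, c ^^^ c' = 0 ∨ Ty (c ^^^ c') 64) :
    T.card ≤ 24 := by
  classical
  choose! r r1 r2 using fun c hc => (h1 c hc).2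
  have i : Set.InjOn r T := fun a ha b hb e => by rw [← r1 a ha, e, r1 b hb]
  have key : ∀ x y : leechLattice, nm(x) = 32 → nm(y) = 32 → code x ∈ T → code y ∈ T →
      y = x ∨ y = -x ∨ dotHom x y = 0 := fun x y hx hy mx my => by
    rcases h2 _ mx _ my with e | ⟨-, w, e, f⟩
    · exact or_assoc.1 (Or.inl (eq_or_neg_of_code (by omega) (by omega) (Nat.xor_eq_zero_iff.1 e)))
    · have a1 := sqNorm_add (x : GolayPt → ℤ) y
      have a2 := sqNorm_sub (x : GolayPt → ℤ) y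
      have a3 := fun h => sqNorm_eq_of_code (x := x + y) (y := w) h (by omega) ((code_add x y).trans e.symm)
      have a4 := fun h => sqNorm_eq_of_code (x := x - y) (y := w) h (by omega) ((code_sub x y).trans e.symm)
      rw [AddSubgroup.coe_add] at a3
      rw [AddSubgroupClass.coe_sub] at a4
      rw [dotHom_apply]
      omega
  have m : ∀ x ∈ T.image r ∪ (T.image r).image Neg.neg, nm(x) = 32 ∧ code x ∈ T := by
    simp only [Finset.mem_union, Finset.mem_image]
    rintro _ (⟨a, ha, rfl⟩ | ⟨_, ⟨a, ha, rfl⟩, rfl⟩)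
    · exact ⟨r2 a ha, (r1 a ha).symm ▸ ha⟩
    · exact ⟨(sqNorm_neg _).trans (r2 a ha), by rwa [code_neg, r1 a ha]⟩
  have := card_orth_le (β := dotHom) finrank_leech (fun x hx => by rw [dotHom_self, (m x hx).1]; decide)
    fun x hx y hy => key x y (m x hx).1 (m y hy).1 (m x hx).2 (m y hy).2
  rw [Finset.card_union_of_disjoint (Finset.disjoint_left.2 fun x hx hy => ?_), Finset.card_image_of_injective _ neg_injective,
    Finset.card_image_of_injOn i] at this
  · omega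
  simp only [Finset.mem_image] at hx hy
  obtain ⟨a, ha, rfl⟩ := hx
  obtain ⟨_, ⟨b, hb, rfl⟩, e⟩ := hy
  obtain rfl : b = a := by rw [← r1 a ha, ← e, code_neg, r1 b hb]
  exact ne_neg_self (by rw [r2 b hb]; decide) e.symm

theorem ker_le {M S P R : ℕ} (h : kerOK M S P R = true) : {c | c < 2 ^ 24 ∧ app 24 M c = 0}.ncard ≤ 4096 := by
  rw [kerOK, band_eq_true, beq_iff] at h
  refine (Set.ncard_le_ncard ?_ ((Set.finite_Iio _).image (app 24 P))).trans
    ((Set.ncard_image_le (Set.finite_Iio _)).trans_eq (Set.ncard_Iio_nat (2 ^ 12)))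
  intro c hc
  have h1 := congrArg (app 24 · c) h.1
  simp only [Nat.xor_eq, app_mmul, app_xor_left, app_idM hc.1, hc.2, app_zero] at h1
  exact ⟨_, app_lt_of h.2 c, (Nat.xor_eq_zero_iff.1 h1.symm).symm⟩

theorem le_of_mOrb {n N : ℕ} {L prog Is K Ks : List ℕ} (h : mOrb n c N L prog Is K Ks = true) {H : Subgroup Co1}
    (hL : ∀ C ∈ L, Good 24 code2 H C) {S : Set ℕ} (hS : ∀ c ∈ S, c < 2 ^ 24)
    (h0 : ∀ C, Good 24 code2 H C → ∀ c ∈ S, app 24 C c ∈ S) (h1 : {c, app 24 N c, app 24 N (app 24 N c), 0} ⊆ S) :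
    n + 1 ≤ S.ncard := by
  rw [mOrb, band_eq_true, beq_iff] at h
  obtain ⟨L', a1, a2⟩ := slp_spec (Good.one code2_lt H) (fun _ _ => Good.mul) hL h.2
  rw [mkF_eq, List.append_nil] at a2
  obtain ⟨P, a3, a4⟩ := runP_spec (n := n + 1) (S := {c, app 24 N c, app 24 N (app 24 N c), 0}) (fun i x hx => by
    rcases nth_mem (idM 24) [N] i with e | e
    · rwa [e, app_idM (hS x (h1 hx))]
    · rw [List.mem_singleton.1 e]
      rcases hx with rfl | rfl | rfl | rfl <;> simp [h.1, app_zero]) (by simp) (fun j hj => Or.inl (by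
    refine Nat.eq_of_testBit_eq fun i => ?_
    rw [testBit_colN, getD_range_map]
    split_ifs with hi
    · rw [bit_eq]
      cases c.testBit i
      · simp
      · rw [cnd_true, msk_eq, Nat.testBit_two_pow_sub_one]; simpa using hj
    · rw [Nat.zero_testBit]
      exact (Nat.testBit_lt_two_pow (lt_of_lt_of_le (hS c (h1 (Or.inl rfl)))
        (Nat.pow_le_pow_right (by norm_num) (by omega)))).symm)) a2
  rw [band_eq_true, beq_iff] at a4
  obtain ⟨P', a5, a6⟩ := runP_spec (n := n + 1) (fun i => h0 _ ((nth_mem (idM 24) L' i).elim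
    (fun e => e.symm ▸ Good.one code2_lt H) (a1 _))) a4.1 (fun j hj => h1 (a3 j hj)) a4.2
  exact ncard_of_sorted ((Set.finite_Iio _).subset hS) a5 a6

theorem hG : ∀ C ∈ T :: S :: V :: L.map Prod.fst, Good 24 code2 (⊤ : Subgroup Co1) C := good_zipY L_Y (by decide)

variable {v : Co1} (hv : LRep 24 code2 v V)
include hv

theorem good_cen : ∀ C ∈ V :: L.map Prod.fst, Good 24 code2 (centralizer {v}) C := fun C hC =>
  let ⟨g, _, hg⟩ := hG C (.tail _ (.tail _ hC))
  ⟨g, mem_centralizer_singleton_iff.2 ((hg.mul hv).eq_of_ker coded1 ker1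
    (beq_iff.1 (allL_iff.1 comm_V C hC) ▸ hv.mul hg)), hg⟩

theorem cm (hC : Good 24 code2 (centralizer {v}) C) (w n : ℕ) (hc : c < 2 ^ 24) :
    app 24 C (app 24 (pM w n) c) = app 24 (pM w n) (app 24 C c) := by
  obtain ⟨g, hg, r⟩ := hC
  obtain ⟨x, rfl⟩ := exists_code2 hc
  induction n with
  | zero =>
    have : ∀ c, app 24 0 c = 0 := fun c => (app_xor_left 0 0 c).trans (Nat.xor_self _)
    exact (congrArg _ (this _)).trans ((app_zero _ _).trans (this _).symm)
  | succ n ih =>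
    change app 24 C (app 24 (cnd (bit w n) (mpow 24 V n ^^^ pM w n) (pM w n)) _) =
      app 24 (cnd (bit w n) (mpow 24 V n ^^^ pM w n) (pM w n)) _
    cases bit w n
    · exact ih
    · rw [cnd_true, app_xor_left, app_xor_left, app_xor, ih, ← hv.pow code2_lt, ← r, ← r, ← hv.pow code2_lt, ← mul_smul,
        ← mul_smul, ((show Commute g v from mem_centralizer_singleton_iff.1 hg).pow_right n).eq]

theorem cm_ev (hC : Good 24 code2 (centralizer {v}) C) {cs : List ℕ} (h : ∀ c ∈ cs, c < 2 ^ 24) (w : ℕ) :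
    app 24 C (evZ w cs) = evZ w (cs.map (app 24 C)) := by
  induction cs generalizing w with
  | nil => exact app_zero _ _
  | cons c cs ih =>
    rw [List.forall_mem_cons] at h
    exact (app_xor _ _ _ _).trans (congrArg₂ _ (cm hv hC w 7 h.1) (ih h.2 _))

theorem fix_ev (hC : Good 24 code2 (centralizer {v}) C) {cs : List ℕ} (h : ∀ c ∈ cs, app 24 C c = c) (w : ℕ) :
    app 24 C (evZ w cs) = evZ w cs := by
  rw [cm_ev hv hC fun c hc => h c hc ▸ app_lt _ _ _, List.map_congr_left h, List.map_id']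

theorem ty_ker (h1 : c < 2 ^ 24) (h2 : app 24 (pM 22 7) c = 0) : c = 0 ∨ Ty c 64 := by
  have r := repA
  simp only [Grp.allP_iff, List.forall_mem_cons, band_eq_true, beq_iff] at r
  have := Set.eq_of_subset_of_ncard_le (s := {c | (c < 2 ^ 24 ∧ app 24 (pM 22 7) c = 0) ∧ (c = 0 ∨ Ty c 64)})
    (fun _ h => h.1) ((ker_le kerA).trans (le_of_mOrb orbA (good_cen hv) (fun _ h => h.1.1) (fun C hC c h =>
      ⟨⟨app_lt _ _ _, by rw [← cm hv hC _ _ h.1.1, h.1.2, app_zero]⟩, h.2.imp (fun (e : c = 0) => by rw [e, app_zero]) (.map hC)⟩) (by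
        rw [show app 24 _ 25916 = 2605 by decide +kernel, show app 24 _ 2605 = 1209 by decide +kernel]
        rintro _ (rfl | rfl | rfl | rfl)
        exacts [⟨⟨by decide, r.1.2⟩, Or.inr (ty_of r.1.1)⟩, ⟨⟨by decide, r.2.1.2⟩, Or.inr (ty_of r.2.1.1)⟩,
          ⟨⟨by decide, r.2.2.1.2⟩, Or.inr (ty_of r.2.2.1.1)⟩, ⟨⟨by decide, app_zero _ _⟩, Or.inl rfl⟩])))
    ((Set.finite_Iio _).subset fun _ h => h.1)
  exact (this.ge ⟨h1, h2⟩).2

/-- Minimal classes over `u`. -/
def Pt (u k c : ℕ) : Prop := Ty c 32 ∧ app 24 (pM 22 7) c = u ∧ Ty (app 24 (pM 3 7) c) k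

omit hv in
theorem pt_of {u a b : ℕ} (h : pOK u k c a b = true) : Pt u k c := by
  simp only [pOK, band_eq_true, beq_iff] at h
  exact ⟨ty_of h.1.1, h.1.2, ty_of h.2⟩

theorem Pt.map {u : ℕ} (hC : Good 24 code2 (centralizer {v}) C) (h : Pt u k c) : Pt (app 24 C u) k (app 24 C c) :=
  ⟨h.1.map hC, by rw [← cm hv hC _ _ h.1.lt, h.2.1], cm hv hC _ _ h.1.lt ▸ h.2.2.map hC⟩

theorem Pt.cases (h : Pt 19478 k c) : (k = 32 → c = 368850) ∧ (k = 64 → c ∈ Z) := by
  have f := F_ok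
  simp only [band_eq_true, Grp.allP_iff, decide_eq_true_eq, bor_eq_true, beq_iff] at f
  have m : ∀ d ∈ insert c (FW.map Prod.fst).toFinset, Ty d 32 ∧ app 24 (pM 22 7) d = 19478 := by
    simp only [Finset.forall_mem_insert, List.mem_toFinset, List.forall_mem_map]
    exact ⟨⟨h.1, h.2.1⟩, fun p hp => ⟨(pt_of (f.2 p hp).1).1, (pt_of (f.2 p hp).1).2.1⟩⟩
  have := card_le (T := insert c (FW.map Prod.fst).toFinset) (fun c hc => (m c hc).1) fun a ha b hb => ty_ker hv (Nat.xor_lt_two_pow (m a ha).1.lt (m b hb).1.lt)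
    (by rw [app_xor, (m a ha).2, (m b hb).2, Nat.xor_self])
  obtain ⟨p, hp, rfl⟩ := List.mem_map.1 (List.mem_toFinset.1 (by_contra fun e => by
    rw [Finset.card_insert_of_notMem e, List.toFinset_card_of_nodup f.1] at this
    exact absurd this (by decide)) : c ∈ FW.map Prod.fst)
  obtain ⟨a, b, d⟩ := f.2 p hp
  rw [h.2.2.eq (pt_of a).2.2]
  exact ⟨b.resolve_left ∘ fun e n => Mathieu.ne_of_not_beq n e,
    mem_of_memN ∘ d.resolve_left ∘ fun e n => Mathieu.ne_of_not_beq n e⟩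

omit hv in
theorem pt_FW {q : ℕ × ℕ} (h : q ∈ FW.map fun p => (p.1, p.2.2.2)) : Pt 19478 q.2 q.1 := by
  have f := F_ok
  simp only [band_eq_true, Grp.allP_iff] at f
  obtain ⟨p, hp, rfl⟩ := List.mem_map.1 h
  exact pt_of (f.2 p hp).1

theorem not_mem {w a b : ℕ} (h1 : Pt w 32 a) (h2 : Pt w 32 b) (h : a ≠ b) (hC : Good 24 code2 (centralizer {v}) C) :
    app 24 C w ≠ 19478 := fun e => by
  have := (((e ▸ h1.map hv hC).cases hv).1 rfl).trans (((e ▸ h2.map hv hC).cases hv).1 rfl).symm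
  obtain ⟨g, -, r⟩ := hC
  obtain ⟨x, rfl⟩ := exists_code2 h1.1.lt
  obtain ⟨y, rfl⟩ := exists_code2 h2.1.lt
  exact h (congrArg _ (MulAction.injective g (code2_injective (by rw [r, r, this]))))

theorem orb_u {u : L2} (hu : code2 u = 19478) : (orbit (centralizer {v}) u).ncard ≤ 2520 := by
  have w1 := wit1
  have w2 := wit2
  rw [band_eq_true] at w1 w2
  have k : ∀ C, Good 24 code2 (centralizer {v}) C → ∀ c < 2 ^ 24, app 24 (pM 23 7) c = 0 →
      app 24 (pM 23 7) (app 24 C c) = 0 := fun C hC c h1 h2 => by rw [← cm hv hC _ _ h1, h2, app_zero]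
  have h0 : ∀ c ∈ code2 '' orbit (centralizer {v}) u, ∃ C, Good 24 code2 (centralizer {v}) C ∧ app 24 C c = 19478 := by
    rintro _ ⟨_, ⟨g, rfl⟩, rfl⟩
    obtain ⟨C, r⟩ := exists_lrep1 (g : Co1)⁻¹
    exact ⟨C, ⟨_, inv_mem g.2, r⟩, by rw [← r, ← hu]; exact congrArg _ (inv_smul_smul _ _)⟩
  have h1 : code2 '' orbit (centralizer {v}) u ⊆ {c | c < 2 ^ 24 ∧ app 24 (pM 23 7) c = 0} := by
    rintro _ ⟨_, ⟨g, rfl⟩, rfl⟩
    obtain ⟨C, r⟩ := exists_lrep1 (g : Co1)
    exact ⟨code2_lt _, (congrArg _ (r u)).trans (k C ⟨_, g.2, r⟩ _ (code2_lt _) (hu ▸ by decide +kernel))⟩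
  have h2 := le_of_mOrb orbB (good_cen hv) (S := {c | c < 2 ^ 24 ∧ app 24 (pM 23 7) c = 0} \
    code2 '' orbit (centralizer {v}) u) (fun _ h => h.1.1) (fun C hC c h => ⟨⟨app_lt _ _ _, k C hC c h.1.1 h.1.2⟩, by
      obtain ⟨g, hg, r⟩ := hC
      obtain ⟨x, rfl⟩ := exists_code2 h.1.1
      rintro ⟨y, hy, e⟩
      obtain rfl := code2_injective (e.trans (r x).symm)
      exact h.2 ⟨x, inv_smul_smul (⟨g, hg⟩ : centralizer {v}) x ▸ mapsTo_smul_orbit _ u hy, rfl⟩⟩) (by
      rw [show app 24 _ 10350 = 1135 by decide +kernel, show app 24 _ 1135 = 0 by decide +kernel]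
      rintro _ (rfl | rfl | rfl | rfl)
      · exact ⟨by decide +kernel, fun h => let ⟨_, a, b⟩ := h0 _ h; not_mem hv (pt_of w1.1) (pt_of w1.2) (by decide) a b⟩
      · exact ⟨by decide +kernel, fun h => let ⟨_, a, b⟩ := h0 _ h; not_mem hv (pt_of w2.1) (pt_of w2.2) (by decide) a b⟩
      all_goals exact ⟨⟨by decide, app_zero _ _⟩, fun h => let ⟨_, _, b⟩ := h0 _ h; absurd (app_zero _ _ ▸ b) (by decide)⟩)
  have h3 := Set.ncard_sdiff_add_ncard_of_subset h1 ((Set.finite_Iio _).subset fun _ h => h.1)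
  have h4 := ker_le kerB
  rw [Set.ncard_image_of_injective _ code2_injective] at h3
  omega

theorem fix_of {x : ℕ} {cs : List ℕ} {W : List (ℕ × ℕ × ℕ × ℕ × ℕ × ℕ)} (h : fixOK x cs W = true)
    (hC : Good 24 code2 (centralizer {v}) C) (hx : x < 2 ^ 24) (h1 : ∀ c ∈ cs, app 24 C c = c) (h2 : app 24 C x ∈ Z) :
    app 24 C x = x := by
  rw [fixOK, band_eq_true, beq_iff_eq, Grp.allP_iff] at h
  obtain ⟨p, hp, e⟩ := List.mem_map.1 (h.1 ▸ h2)
  have := h.2 p hp
  simp only [bor_eq_true, band_eq_true, beq_iff] at this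
  rcases this with h3 | ⟨h3, h4, h5⟩
  · exact e.symm.trans h3
  have := (ty_of h4).map hC
  rw [cm_ev hv hC (List.forall_mem_cons.2 ⟨hx, fun c hc => h1 c hc ▸ app_lt _ _ _⟩), List.map_cons, List.map_congr_left h1,
    List.map_id', ← e] at this
  exact absurd (this.eq (ty_of h5)) (Mathieu.ne_of_not_beq h3)

theorem fix_y (hC : Good 24 code2 (centralizer {v}) C) (h : app 24 C 19478 = 19478) : app 24 C 368850 = 368850 :=
  ((h ▸ (pt_FW (q := (368850, 32)) (by decide +kernel)).map hv hC).cases hv).1 rfl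

theorem mem_Z (hC : Good 24 code2 (centralizer {v}) C) (h : app 24 C 19478 = 19478)
    (hc : (c, 64) ∈ FW.map fun p => (p.1, p.2.2.2)) : app 24 C c ∈ Z :=
  ((h ▸ (pt_FW hc).map hv hC).cases hv).2 rfl

theorem eq_one {g : Co1} (hg : g ∈ centralizer {v}) (r : LRep 24 code2 g C) (h1 : app 24 C 19478 = 19478)
    (h2 : app 24 C 1783953 = 1783953) : g = 1 := by
  have hC : Good 24 code2 (centralizer {v}) C := ⟨g, hg, r⟩
  have h3 := fix_y hv hC h1
  have h4 := fix_of hv fix2 hC (by decide) (by simp [h2, h3]) (mem_Z hv hC h1 (by decide +kernel))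
  have h5 := fix_of hv fix3 hC (by decide) (by simp [h2, h3, h4]) (mem_Z hv hC h1 (by decide +kernel))
  have h6 : ∀ c ∈ [7112337, 3777818, 1783953, 368850], app 24 C c = c := by simp [h2, h3, h4, h5]
  have m : ∀ C ∈ S :: L.map Prod.fst, Good 24 code2 (normalizer (zpowers v : Set Co1)) C := fun C hC =>
    (good_gp1 (fun C hC => hG C (.tail _ ((List.mem_cons.1 hC).elim (· ▸ .head _) fun h => .tail _ (.tail _ h)))) C hC).mono
      (le_normalizer_of hv (by decide +kernel))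
  have h7 : ∀ D ∈ Ns, app 24 C (app 24 D 368850) = app 24 D 368850 := fun D hD => by
    obtain ⟨n, hn, s⟩ : Good 24 code2 (normalizer (zpowers v : Set Co1)) D := (List.mem_cons.1 hD).elim
      (· ▸ m _ (.head _)) fun h => let ⟨_, a, b⟩ := List.mem_map.1 h; b ▸ (m _ (.tail _ a)).mul (m _ (.head _))
    obtain ⟨C', r'⟩ := exists_lrep1 (n⁻¹ * g * n)
    have k : ∀ c < 2 ^ 24, app 24 C' c = c ↔ app 24 C (app 24 D c) = app 24 D c := fun c hc => by
      obtain ⟨x, rfl⟩ := exists_code2 hc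
      rw [← r', ← s, ← r, code2_injective.eq_iff, code2_injective.eq_iff, mul_smul, mul_smul, inv_smul_eq_iff]
    rw [← List.map_fst_zip (l₁ := Ns) (l₂ := [8470656, 4309382, 6390273]) (by decide +kernel)] at hD
    obtain ⟨p, hp, rfl⟩ := List.mem_map.1 hD
    refine (k _ (by decide)).1 (fix_y hv ⟨_, ?_, r'⟩ ((k _ (by decide)).2 ?_))
    · rw [← Core.centralizer_zpowers] at hg ⊢
      exact (mem_normalizer_iff''.1 (Core.normalizer_le_normalizer_centralizer _ hn) g).1 hg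
    · rw [← beq_iff.1 (Grp.allP_iff.1 span1 p hp), fix_ev hv hC h6]
  exact mem_bot.1 (ker1 ▸ tst1 g fun j hj x hx => by
    rw [r, hx, ← beq_iff.1 (allLt_iff.1 span2 j hj), fix_ev hv hC (List.forall_mem_append.2 ⟨h6, List.forall_mem_map.2 h7⟩)])

theorem card_cen_le : Nat.card (centralizer ({v} : Set Co1)) ≤ 17640 := by
  obtain ⟨u, hu⟩ := exists_code2 (c := 19478) (by decide)
  obtain ⟨z, hz⟩ := exists_code2 (c := 1783953) (by decide)
  have h1 : (orbit ↥(centralizer {v} ⊓ stabilizer Co1 u) z).ncard ≤ 7 := by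
    rw [← Set.ncard_image_of_injective _ code2_injective]
    refine (Set.ncard_le_ncard (t := (Z.toFinset : Set ℕ)) ?_).trans_eq (by rw [Set.ncard_coe_finset]; decide)
    rintro _ ⟨_, ⟨g, rfl⟩, rfl⟩
    obtain ⟨C, r⟩ := exists_lrep1 (g : Co1)
    exact List.mem_toFinset.2 ((r z).trans (congrArg _ hz) ▸
      mem_Z hv ⟨_, g.2.1, r⟩ (by rw [← hu, ← r, g.2.2]) (by decide +kernel))
  have h2 : centralizer {v} ⊓ stabilizer Co1 u ⊓ stabilizer Co1 z = ⊥ := eq_bot_iff.2 fun g hg =>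
    let ⟨_, r⟩ := exists_lrep1 g
    eq_one hv hg.1.1 r (by rw [← hu, ← r, hg.1.2]) (by rw [← hz, ← r, hg.2])
  rw [card_eq_ncard_mul _ u, card_eq_ncard_mul _ z, h2, card_bot, mul_one]
  exact Nat.mul_le_mul (orb_u hv hu) h1

theorem ord : orderOf v = 7 := coded1.orderOf_eq ker1 sur1 hv (n := 6) (by decide +kernel)

theorem cen_equiv : Nonempty (centralizer ({v} : Set Co1) ≃* Multiplicative (ZMod 7) × alternatingGroup (Fin 7)) := by
  have hL : ∀ t ∈ L, Good 7 (codeP 7) (⊤ : Subgroup (Equiv.Perm (Fin 7))) t.2.1 := by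
    simp only [L, List.forall_mem_cons]
    exact ⟨good_perm (by decide +kernel), good_perm (by decide +kernel), by simp⟩
  obtain ⟨φ, a1, a2⟩ := exists_hom_of_tab (G := Co1) (Y := PV 7) (code' := codeP 7) (code1_inj (num_fin 7))
    (tst_perm 7 (by decide +kernel)) (ker_perm 7) (sur2 _ _) (sur1' (num_fin 7) _ _) tab hL
  have g1 : ∀ C ∈ L.map Prod.fst, Good 24 code2 (centralizer {v}) C := fun C hC => good_cen hv C (.tail _ hC)
  have h1 : gp1 (L.map Prod.fst) ≤ centralizer {v} := coded1.genL_le (ker1_le _) g1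
  have h2 : 2520 ≤ Nat.card φ.range := (low_genL (coded_perm 7) (fun _ => exists_code1 (num_fin 7))
    (List.forall_mem_map.2 hL) lo_ok).trans (card_le_of_le ((coded_perm 7).genL_le (ker_perm 7 ▸ bot_le) (good_range g1 hL a1)))
  have h3 : zpowers v ⊓ gp1 (L.map Prod.fst) = ⊥ := by
    have : Fact (Nat.card (zpowers v)).Prime := ⟨by rw [Nat.card_zpowers, ord hv]; decide⟩
    refine (((gp1 (L.map Prod.fst)).subgroupOf (zpowers v)).eq_bot_or_eq_top_of_prime_card.imp subgroupOf_eq_bot.1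
      subgroupOf_eq_top.1).elim (fun h => h.symm.eq_bot) fun h => ?_
    obtain ⟨j, hj, e, -⟩ := a2 ⟨v, h (mem_zpowers v)⟩ 0 (by decide)
    obtain ⟨x, hx⟩ := sur2 105 A 0 (by decide)
    exact absurd ((hv x).symm.trans (e x hx)) (hx ▸ Mathieu.ne_of_not_beq (allLt_iff.1
      (show allLt 105 (fun j => !Nat.beq (app 24 V (get 24 A 0)) (get 24 A j)) = true by decide +kernel) j hj))
  have h4 := Core.centralizer_zpowers v ▸ h1
  have h5 := Coprime.card_sup_of_disjoint (h4.trans (centralizer_le_normalizer _)) h3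
  have h6 : zpowers v ⊔ gp1 (L.map Prod.fst) ≤ centralizer {v} :=
    sup_le ((zpowers_le (G := Co1)).2 (mem_centralizer_singleton_iff.2 rfl)) h1
  have h7 := card_le_of_le h6
  have h8 := card_cen_le hv
  have h9 := Nat.card_le_card_of_surjective _ φ.rangeRestrict_surjective
  rw [Nat.card_zpowers, ord hv] at h5
  unfold gp1 at *
  obtain ⟨e⟩ := Fi.equiv_prod h4 h3 (eq_of_le_of_card_ge h6 (by omega))
  have h10 := φ.range.index_mul_card
  rw [show Nat.card φ.range = 2520 by omega, Nat.card_perm, Nat.card_fin] at h10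
  exact ⟨e.trans ((mulEquivOfCyclicCardEq (by rw [Nat.card_zpowers, ord hv]; simp)).prodCongr
    ((MulEquiv.ofBijective φ.rangeRestrict ((Nat.bijective_iff_surjective_and_card _).2
      ⟨φ.rangeRestrict_surjective, by omega⟩)).trans (MulEquiv.subgroupCongr (Equiv.Perm.eq_alternatingGroup_of_index_eq_two
        (Nat.eq_of_mul_eq_mul_right (by norm_num) (h10.trans (by decide)))))))⟩

end Cfsg.Lib.CoT.S7
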