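import Cfsg.Agent.Lib.Monster.Cen2
import Cfsg.Agent.Lib.T2.C1
import Cfsg.Agent.Lib.F2.Inv

/-!
# Sign changes in `Co₁`
-/

set_option autoImplicit false

namespace Cfsg.Lib.CoT

open Subgroup MulAction Finset Cfsg.Lib.Leech Cfsg.Lib.Mon Cfsg.Spor Cfsg.Lib.Calc Cfsg.Lib.F2
open scoped Pointwise symmDiff

open Classical in
/-- The sign change on `c`, in `Co₀`. -/
noncomputable def sg0 (c : Finset GolayPt) : Co0 := if hc : c ∈ GC then mono 1 M24.one_mem c hc else 1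

/-- The sign change on `c`, in `Co₁`. -/
noncomputable def sg (c : Finset GolayPt) : Co1 := pr1 (sg0 c)

variable {c d : Finset GolayPt}

theorem sg0_eq (hc : c ∈ GC) : sg0 c = mono 1 M24.one_mem c hc := dif_pos hc

theorem mono_eq_sg0 (σ : M24) (hc : c ∈ GC) : mono σ σ.2 c hc = sg0 c * permHom σ := by rw [mono_eq, sg0_eq]

theorem sg0_mul (hc : c ∈ GC) (hd : d ∈ GC) : sg0 c * sg0 d = sg0 (c ∆ d) := by
  rw [sg0_eq hc, sg0_eq hd, mono_mul, sg0_eq (GC_symmDiff hc hd)]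
  simp only [mul_one, one_smul]

theorem sg0_empty : sg0 ∅ = 1 := (sg0_eq GC_empty).trans permHom.map_one

theorem sg0_univ : sg0 univ = negOne := co0_ext fun v => Subtype.ext (funext fun i => by
  rw [sg0_eq GC_univ, mono_smul, negOne_smul]
  simp only [signedPerm, mem_univ, if_true]
  rfl)

theorem sg0_inj (hc : c ∈ GC) (hd : d ∈ GC) (h : sg0 c = sg0 d) : c = d :=
  (mono_inj ((sg0_eq hc).symm.trans (h.trans (sg0_eq hd)))).2

theorem perm_sg0 (σ : M24) (hc : c ∈ GC) : permHom σ * sg0 c = sg0 ((σ : Equiv.Perm GolayPt) • c) * permHom σ := by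
  rw [sg0_eq hc, sg0_eq (smul_mem_GC σ.2 hc), ← perm_conj_sign, inv_mul_cancel_right]

theorem pr1_eq_iff {g h : Co0} : pr1 g = pr1 h ↔ g = h ∨ g = negOne * h := by
  rw [← mul_inv_eq_one, ← map_inv, ← map_mul, QuotientGroup.mk'_apply, QuotientGroup.eq_one_iff, mem_center_iff,
    mul_inv_eq_one, mul_inv_eq_iff_eq_mul]

theorem pr1_negOne : pr1 negOne = 1 := (pr1_eq_iff.2 (Or.inr (mul_one _).symm)).trans (map_one _)

theorem sg_mul (hc : c ∈ GC) (hd : d ∈ GC) : sg c * sg d = sg (c ∆ d) := by rw [sg, sg, ← map_mul, sg0_mul hc hd, sg]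

theorem sg_empty : sg ∅ = 1 := by rw [sg, sg0_empty, map_one]

theorem sg_self (hc : c ∈ GC) : sg c * sg c = 1 := by rw [sg_mul hc hc, symmDiff_self, bot_eq_empty, sg_empty]

theorem sg_inv (hc : c ∈ GC) : (sg c)⁻¹ = sg c := inv_eq_of_mul_eq_one_right (sg_self hc)

theorem sg_comm (hc : c ∈ GC) (hd : d ∈ GC) : sg c * sg d = sg d * sg c := by
  rw [sg_mul hc hd, sg_mul hd hc, symmDiff_comm]

theorem univ_symmDiff : univ ∆ c = cᶜ := top_symmDiff c

theorem sg_eq_iff (hc : c ∈ GC) (hd : d ∈ GC) : sg c = sg d ↔ c = d ∨ c = dᶜ := by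
  rw [sg, sg, pr1_eq_iff, ← sg0_univ, sg0_mul GC_univ hd, univ_symmDiff]
  exact or_congr ⟨sg0_inj hc hd, congrArg _⟩ ⟨sg0_inj hc (GC_compl hd), congrArg _⟩

theorem sg_compl (hc : c ∈ GC) : sg cᶜ = sg c := (sg_eq_iff (GC_compl hc) hc).2 (Or.inr rfl)

theorem sg_eq_one (hc : c ∈ GC) : sg c = 1 ↔ c = ∅ ∨ c = univ := by
  rw [← sg_empty, sg_eq_iff hc GC_empty, compl_empty]

theorem px_sg (σ : M24) (hc : c ∈ GC) : px σ * sg c = sg ((σ : Equiv.Perm GolayPt) • c) * px σ :=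
  (map_mul pr1 _ _).symm.trans ((congrArg _ (perm_sg0 σ hc)).trans (map_mul pr1 _ _))

theorem px_conj (σ : M24) (hc : c ∈ GC) : px σ * sg c * (px σ)⁻¹ = sg ((σ : Equiv.Perm GolayPt) • c) := by
  rw [px_sg σ hc, mul_inv_cancel_right]

theorem mem_signs {g : Co1} : g ∈ signs ↔ ∃ c ∈ GC, g = sg c :=
  ⟨by rintro ⟨_, ⟨c, hc, rfl⟩, rfl⟩; exact ⟨c, hc, by rw [sg, sg0_eq hc]⟩,
    by rintro ⟨c, hc, rfl⟩; exact ⟨_, ⟨c, hc, sg0_eq hc⟩, rfl⟩⟩

theorem sg_mem (hc : c ∈ GC) : sg c ∈ signs := mem_signs.2 ⟨c, hc, rfl⟩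

theorem exists_sg_px {g : Co1} (hg : g ∈ stabilizer Co1 e0) : ∃ c ∈ GC, ∃ σ : M24, g = sg c * px σ := by
  rw [stabilizer_e8] at hg
  obtain ⟨g, hg, rfl⟩ := hg
  obtain ⟨σ, hσ, c, hc, rfl⟩ := mem_monoGrp_iff.1 hg
  exact ⟨c, hc, ⟨σ, hσ⟩, by rw [mono_eq_sg0 ⟨σ, hσ⟩, map_mul]; rfl⟩

theorem eq_one_of_px_mem {σ : M24} (h : px σ ∈ signs) : σ = 1 :=
  px_injective ((Subgroup.mem_bot.1 (signs_inf ▸ Subgroup.mem_inf.2 ⟨h, range_px ▸ ⟨σ, rfl⟩⟩)).trans (map_one px).symm)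

theorem sg_px_mul (hc : c ∈ GC) (hd : d ∈ GC) (σ τ : M24) :
    sg c * px σ * (sg d * px τ) = sg (c ∆ ((σ : Equiv.Perm GolayPt) • d)) * px (σ * τ) := by
  rw [← sg_mul hc (smul_mem_GC σ.2 hd), map_mul, mul_assoc, ← mul_assoc (px σ), px_sg σ hd]
  group

theorem lrep_sg_px {σ : M24} {t m : ℕ} (h : Mathieu.R σ t) (hm : Golay.G.toF m ∈ GC) :
    LRep 24 code2 (sg (Golay.G.toF m) * px σ⁻¹) (monoM t m) := by
  have := lrep_mk (lrep_mono h hm)
  rwa [mono_eq_sg0] at this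

theorem lrep_sg {m : ℕ} (hm : Golay.G.toF m ∈ GC) : LRep 24 code2 (sg (Golay.G.toF m)) (monoM Mathieu.id24 m) := by
  have := lrep_sg_px Mathieu.R.one hm
  rwa [inv_one, map_one, mul_one] at this

theorem conj_oct (hc : c ∈ GC) (h : c.card = 8 ∨ c.card = 16) :
    ∃ k : M24, px k * sg (Golay.G.toF 8536111) * (px k)⁻¹ = sg c := by
  rcases h with h | h
  · obtain ⟨k, hk⟩ := Mathieu.exists_smul_octad Mathieu.oct0_mem (Golay.mem_octads.2 ⟨hc, h⟩)
    exact ⟨k, by rw [px_conj k (Golay.mem_octads.1 Mathieu.oct0_mem).1, hk]⟩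
  · obtain ⟨k, hk⟩ := Mathieu.exists_smul_octad Mathieu.oct0_mem (Golay.mem_octads.2 ⟨GC_compl hc, by
      rw [card_compl, card_golayPt, h]⟩)
    exact ⟨k, by rw [px_conj k (Golay.mem_octads.1 Mathieu.oct0_mem).1, hk, sg_compl hc]⟩

theorem conj_dod (hc : c ∈ GC) (h : c.card = 12) : ∃ k : M24, px k * sg (Golay.G.toF 340831) * (px k)⁻¹ = sg c := by
  obtain ⟨k, hk⟩ := Mathieu.exists_smul_dodecad Mathieu.dod0_mem (Golay.mem_dodecads.2 ⟨hc, h⟩)
  exact ⟨k, by rw [px_conj k (Golay.mem_dodecads.1 Mathieu.dod0_mem).1, hk]⟩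

theorem sg_cases (hc : c ∈ GC) : sg c = 1 ∨ (c.card = 8 ∨ c.card = 16) ∨ c.card = 12 := by
  rcases GC_card hc with h | h | h | h | h
  · exact Or.inl ((sg_eq_one hc).2 (Or.inl (card_eq_zero.1 h)))
  · exact Or.inr (Or.inl (Or.inl h))
  · exact Or.inr (Or.inr h)
  · exact Or.inr (Or.inl (Or.inr h))
  · exact Or.inl ((sg_eq_one hc).2 (Or.inr (eq_univ_of_card _ (h.trans card_golayPt.symm))))

theorem index_stab : (stabilizer Co1 e0).index = 8292375 := by
  have := (stabilizer Co1 e0).index_mul_card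
  rw [card_stab, card_Co1] at this
  exact Nat.eq_of_mul_eq_mul_right (by norm_num) (this.trans (by norm_num))

theorem exists_conj_stab {x : Co1} {p : ℕ} [hp : Fact p.Prime] (h1 : ¬ p ∣ 8292375) (h : orderOf x = p) :
    ∃ g : Co1, g * x * g⁻¹ ∈ stabilizer Co1 e0 := by
  obtain ⟨q, hq⟩ := (IsPGroup.of_card (p := p) (n := 1) (G := zpowers x) (by
    rw [Nat.card_zpowers, h, pow_one])).nonempty_fixed_point_of_prime_not_dvd_card (Co1 ⧸ stabilizer Co1 e0)
      (by rw [← index_eq_card, index_stab]; exact h1)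
  obtain ⟨g, rfl⟩ := QuotientGroup.mk_surjective q
  have : ((x * g : Co1) : Co1 ⧸ stabilizer Co1 e0) = g := hq ⟨x, mem_zpowers x⟩
  exact ⟨g⁻¹, by simpa [mul_assoc] using inv_mem (QuotientGroup.eq.1 this)⟩

/-- A dodecad sign change detects the parity of a vector. -/
theorem parity (hc : c ∈ GC) (h : c.card = 12) (v : leechLattice) :
    (16 : ℤ) ∣ dt(v, sg0 c • v) - dt(v, e8 none) := by
  obtain ⟨m, z, h1, h2, -⟩ := mem_leech_iff.1 v.2
  have e1 : dt(v, sg0 c • v) = nm(v) - 2 * ∑ i ∈ c, (v : GolayPt → ℤ) i ^ 2 := by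
    rw [sg0_eq hc, mono_smul, dotInt, sqNorm, mul_sum, ← sum_ite_mem_eq c, ← sum_sub_distrib]
    refine sum_congr rfl fun i _ => ?_
    change _ * (if _ then -(v : GolayPt → ℤ) i else (v : GolayPt → ℤ) i) = _
    split_ifs <;> ring
  have e2 : (2 : ℤ) ∣ ∑ i ∈ c, z i := by
    have h3 := GC_inter_even hc (red_mem_iff.1 h2)
    have h4 : (2 : ℤ) ∣ ∑ i ∈ c, (z i - if z i % 2 = 1 then 1 else 0) := dvd_sum fun i _ => by
      split_ifs <;> omega
    rw [sum_sub_distrib, sum_boole] at h4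
    rw [inter_filter, inter_univ] at h3
    omega
  have e3 : (8 : ℤ) ∣ ∑ i ∈ c, ((v : GolayPt → ℤ) i ^ 2 - (m ^ 2 + 4 * (m + 1) * z i)) := dvd_sum fun i _ => by
    obtain ⟨k, hk⟩ := Int.even_mul_pred_self (z i)
    exact ⟨k, by rw [h1]; linear_combination 4 * hk⟩
  rw [sum_sub_distrib, sum_add_distrib, sum_const, h, ← mul_sum] at e3
  obtain ⟨a, ha⟩ := e2
  obtain ⟨b, hb⟩ := e3
  obtain ⟨n, hn⟩ := sixteen_dvd_sqNorm v.2
  obtain ⟨k, hk⟩ := Int.even_mul_pred_self m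
  rw [e1, coe_e8, dot_single, h1, hn]
  exact ⟨n - b - a * (m + 1) - 3 * k - 2 * m - z none, by
    rw [ha, nsmul_eq_mul] at hb; push_cast at hb; linear_combination (-2) * hb - 24 * hk⟩

theorem code_eq_zero_of {w : leechLattice} (h : ∀ v : leechLattice, (16 : ℤ) ∣ dt(v, w)) : code w = 0 :=
  Nat.eq_of_testBit_eq fun i => by
    rw [testBit_code, Nat.zero_testBit, Bool.and_eq_false_imp, decide_eq_true_iff, decide_eq_false_iff_not]
    intro hi
    have h1 := h (lv (get 192 dualP i))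
    rw [coe_lv (isL_dualP i hi), ← eight_coord w hi] at h1
    omega

theorem cen_dod_le (hc : c ∈ GC) (h : c.card = 12) : centralizer {sg c} ≤ stabilizer Co1 e0 := fun g hg => by
  obtain ⟨g, rfl⟩ := QuotientGroup.mk'_surjective _ g
  rw [stabilizer_e8]
  refine mem_map_of_mem _ (inv_mem_iff.1 (mem_monoGrp_code.2 (Nat.xor_eq_zero_iff.1 ?_)))
  rw [← code_sub]
  refine code_eq_zero_of fun v => ?_
  have h1 := parity hc h v
  have h2 := parity hc h (g • v)
  have h3 := eight_dvd_dot v.2 (sg0 c • v).2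
  have h4 := pr1_eq_iff.1 ((map_mul pr1 _ _).trans ((mem_centralizer_singleton_iff.1 hg).symm.trans
    (map_mul pr1 _ _).symm))
  rw [AddSubgroup.coe_sub, dot_sub_right, ← dot_smul g v, smul_inv_smul]
  rw [smul_smul] at h2
  rcases h4 with e | e
  · rw [e, mul_smul, dot_smul] at h2
    omega
  · rw [e, mul_smul, negOne_smul, AddSubgroup.coe_neg, dot_neg_right, mul_smul, dot_smul] at h2
    omega

theorem dvd_of_cen_dod (hc : c ∈ GC) (h : c.card = 12) {u : Co1} (hu : u * sg c = sg c * u) :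
    orderOf (u * u) ∣ 2 ^ 11 * 95040 := by
  obtain ⟨d, hd, σ, rfl⟩ := exists_sg_px (cen_dod_le hc h (mem_centralizer_singleton_iff.2 hu))
  rw [mul_assoc, px_sg σ hc, ← mul_assoc, ← mul_assoc, mul_left_inj, sg_comm hc hd, mul_right_inj,
    sg_eq_iff (smul_mem_GC σ.2 hc) hc] at hu
  have h1 : σ * σ ∈ stabilizer M24 c := by
    change ((σ : Equiv.Perm GolayPt) * σ) • c = c
    rcases hu with e | e
    · rw [mul_smul, e, e]
    · rw [mul_smul, e, Mathieu.smul_compl, e, compl_compl]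
  have h2 : (stabilizer M24 c).map px ≤ perms := range_px ▸ map_le_range _ _
  rw [← card_signs, ← Mathieu.card_stabilizer_dodecad (Golay.mem_dodecads.2 ⟨hc, h⟩), ← card_map_of_injective px_injective,
    ← Coprime.card_sup_of_disjoint ((h2.trans (signs_sup none ▸ le_sup_right)).trans (le_normalizer_signs none))
      (eq_bot_iff.2 ((inf_le_inf_left _ h2).trans signs_inf.le)), sg_px_mul hd hd]
  exact Subgroup.orderOf_dvd_natCard _ (mul_mem_sup (sg_mem (GC_symmDiff hd (smul_mem_GC σ.2 hd))) (mem_map_of_mem _ h1))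

theorem normalizer_signs : normalizer (signs : Set Co1) = stabilizer Co1 e0 := by
  refine le_antisymm ?_ (le_normalizer_signs none)
  have h1 : monoGrp ≤ (normalizer (signs : Set Co1)).comap pr1 :=
    map_le_iff_le_comap.1 (stabilizer_e8 none ▸ le_normalizer_signs none)
  rcases h1.eq_or_lt with e | e
  · rw [stabilizer_e8, e, map_comap_eq_self_of_surjective (QuotientGroup.mk'_surjective _)]
  have h2 := map_comap_eq_self_of_surjective (QuotientGroup.mk'_surjective _) (normalizer (signs : Set Co1))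
  rw [isCoatom_monoGrp.2 _ e, map_top_of_surjective _ (QuotientGroup.mk'_surjective _)] at h2
  have := simple_Co1
  rcases (normalizer_eq_top_iff.1 h2.symm).eq_bot_or_eq_top with e | e <;> have := card_signs <;> rw [e] at this
  · simp at this
  · rw [card_top, card_Co1] at this
    omega

/-- Involutions which are images of involutions. -/
def Pl (x : Co1) : Prop := ∃ g : Co0, pr1 g = x ∧ g * g = 1

theorem Pl.conj {x y : Co1} (h : Pl x) (e : IsConj x y) : Pl y := by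
  obtain ⟨g, rfl, hg⟩ := h
  obtain ⟨k, rfl⟩ := isConj_iff.1 e
  obtain ⟨k, rfl⟩ := QuotientGroup.mk'_surjective _ k
  exact ⟨k * g * k⁻¹, by rw [map_mul, map_mul, map_inv], by rw [conj_mul, hg, mul_one, mul_inv_cancel]⟩

theorem pl_sg (hc : c ∈ GC) : Pl (sg c) := ⟨_, rfl, by rw [sg0_mul hc hc, symmDiff_self, bot_eq_empty, sg0_empty]⟩

theorem Pl.sq {g : Co0} (h : Pl (pr1 g)) : g * g = 1 := by
  obtain ⟨k, e, hk⟩ := h
  rcases pr1_eq_iff.1 e with rfl | rfl
  · exact hk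
  · rwa [mul_assoc, ← mul_assoc g, negOne_comm g, ← mul_assoc, ← mul_assoc, negOne_mul_self, one_mul] at hk

theorem Pl.fix {σ : M24} (hc : c ∈ GC) (h : Pl (sg c * px σ)) (h2 : σ * σ = 1) :
    (σ : Equiv.Perm GolayPt) • c = c := by
  have := Pl.sq (g := sg0 c * permHom σ) (by rwa [map_mul])
  rw [mul_assoc, ← mul_assoc (permHom σ), perm_sg0 σ hc, mul_assoc, ← map_mul, h2, map_one, mul_one,
    sg0_mul hc (smul_mem_GC σ.2 hc), ← sg0_empty] at this
  exact (symmDiff_eq_bot.1 (sg0_inj (GC_symmDiff hc (smul_mem_GC σ.2 hc)) GC_empty this)).symm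

theorem Pl.mul {y : Co1} (h1 : Pl Co2.zz) (h2 : Pl y) (h : y * Co2.zz = Co2.zz * y) : Pl (Co2.zz * y) := by
  obtain ⟨a, ha, h1⟩ := h1
  obtain ⟨b, rfl, h2⟩ := h2
  obtain ⟨k, hk, e⟩ := T2.C1.sq_c ((centralizer {a}).map pr1) (fun g hg => by
    obtain ⟨g, rfl⟩ := QuotientGroup.mk'_surjective _ g
    rw [← ha] at hg
    refine ⟨g * g, mem_centralizer_singleton_iff.2 ?_, map_mul _ _ _⟩
    rcases pr1_eq_iff.1 ((map_mul pr1 _ _).trans ((mem_centralizer_singleton_iff.1 hg).trans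
      (map_mul pr1 _ _).symm)) with e | e
    · rw [mul_assoc, e, ← mul_assoc, e, mul_assoc]
    · rw [mul_assoc, e, ← mul_assoc, negOne_comm g, mul_assoc negOne, ← mul_assoc g, e, ← mul_assoc, ← mul_assoc,
        ← mul_assoc, negOne_mul_self, one_mul, mul_assoc]) (mem_centralizer_singleton_iff.2 h)
  replace hk := mem_centralizer_singleton_iff.1 hk
  have h3 : b * a = a * b := by
    rcases pr1_eq_iff.1 e with rfl | rfl
    · exact hk
    · rwa [mul_assoc, ← mul_assoc a, negOne_comm a, mul_assoc, mul_right_inj] at hk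
  exact ⟨a * b, by rw [map_mul, ha], by rw [mul_assoc, ← mul_assoc b, h3, mul_assoc, h2, mul_one, h1]⟩

theorem smul_eq_of_small {G X : Type*} [Group G] [MulAction G X] {x : G} {p : ℕ} (hp : p.Prime) (hx : orderOf x = p)
    {S : Set X} (hS : S.Finite) (h : S.ncard < p) {v : X} (hv : ∀ i : ℤ, x ^ i • v ∈ S) : x • v = v := by
  have h3 : (orbit (zpowers x) v).ncard ∣ p := by
    rw [← Nat.card_coe_set_eq, Nat.card_congr (orbitEquivQuotientStabilizer _ v), ← hx, ← Nat.card_zpowers]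
    exact index_dvd_card _
  have h4 : (orbit (zpowers x) v).ncard ≤ S.ncard := Set.ncard_le_ncard (by rintro _ ⟨⟨_, i, rfl⟩, rfl⟩; exact hv i) hS
  obtain ⟨a, ha⟩ := Set.ncard_eq_one.1 (((Nat.dvd_prime hp).1 h3).resolve_right (by omega))
  have a1 : v ∈ ({a} : Set X) := ha ▸ mem_orbit_self v
  have a2 : x • v ∈ ({a} : Set X) := ha ▸ ⟨⟨x, mem_zpowers x⟩, rfl⟩
  exact a2.trans a1.symm

end Cfsg.Lib.CoT
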